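import Mathlib
import Cfsg.Agent.H84.WardCore
import Cfsg.Agent.H53.Stabilizer

set_option autoImplicit false

open scoped commutatorElement

/-! Ward's lemma for an arbitrary `s`-group `W`. -/

namespace Cfsg.Agent.H84

universe u

/-- The image of `X ≤ N(C)` in `N(C)/C`. -/
def secImage {Γ : Type u} [Group Γ] (C X : Subgroup Γ) :
    Subgroup (↥(Subgroup.normalizer (C : Set Γ)) ⧸ C.subgroupOf (Subgroup.normalizer (C : Set Γ))) :=
  (X.subgroupOf (Subgroup.normalizer (C : Set Γ))).map (QuotientGroup.mk' _)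

section Section

variable {Γ : Type u} [Group Γ] {C X Y : Subgroup Γ}

theorem mem_secImage {x : Γ} (hxC : x ∈ Subgroup.normalizer (C : Set Γ)) (hx : x ∈ X) :
    QuotientGroup.mk' (C.subgroupOf (Subgroup.normalizer (C : Set Γ))) ⟨x, hxC⟩ ∈ secImage C X :=
  ⟨⟨x, hxC⟩, hx, rfl⟩

theorem card_secImage_dvd (hX : X ≤ Subgroup.normalizer (C : Set Γ)) :
    Nat.card (secImage C X) ∣ Nat.card X :=
  (Subgroup.card_map_dvd _ _).trans
    (Nat.card_congr (Subgroup.subgroupOfEquivOfLe hX).toEquiv).dvd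

theorem secImage_le_normalizer (h : X ≤ Subgroup.normalizer (Y : Set Γ)) [Finite Γ] :
    secImage C X ≤ Subgroup.normalizer
      ((secImage C Y : Subgroup _) : Set (↥(Subgroup.normalizer (C : Set Γ)) ⧸
        C.subgroupOf (Subgroup.normalizer (C : Set Γ)))) := by
  rintro _ ⟨x, hx, rfl⟩
  refine mem_normalizer_of_forall ?_
  rintro _ ⟨y, hy, rfl⟩
  rw [← map_inv, ← map_mul, ← map_mul]
  refine ⟨x * y * x⁻¹, ?_, rfl⟩
  show (x : Γ) * (y : Γ) * (x : Γ)⁻¹ ∈ Y
  exact conj_mem_of_mem_normalizer (h hx) hy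

theorem isPGroup_secImage {p : ℕ} (h : IsPGroup p X) : IsPGroup p (secImage C X) :=
  (h.comap_of_injective _ (Subgroup.subtype_injective _)).map _

/-- Fixed-point-freeness passes to sections under coprime action. -/
theorem secImage_inf_centralizer [Finite Γ] {A : Subgroup Γ} [IsMulCommutative A]
    (hA : A ≤ Subgroup.normalizer (C : Set Γ)) (hX : A ≤ Subgroup.normalizer (X : Set Γ))
    (hcop : (Nat.card A).Coprime (Nat.card X)) (hfix : X ⊓ Subgroup.centralizer (A : Set Γ) = ⊥) :
    secImage C X ⊓ Subgroup.centralizer ((secImage C A : Subgroup _) : Set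
      (↥(Subgroup.normalizer (C : Set Γ)) ⧸ C.subgroupOf (Subgroup.normalizer (C : Set Γ)))) = ⊥ := by
  rw [eq_bot_iff]
  rintro _ ⟨⟨x, hx, rfl⟩, hc⟩
  rw [Subgroup.mem_bot, QuotientGroup.mk'_apply, QuotientGroup.eq_one_iff, Subgroup.mem_subgroupOf]
  obtain ⟨c, hc', hce⟩ := H20.exists_fixed_mem_coset hcop
    (Or.inl (H20.isSolvable_of_isMulCommutative A)) (inf_le_left (b := C))
    (fun a ha => mem_normalizer_of_forall fun k hk => Subgroup.mem_inf.2
      ⟨conj_mem_of_mem_normalizer (hX ha) hk.1, conj_mem_of_mem_normalizer (hA ha) hk.2⟩)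
    (k := (x : Γ)) hx (fun a ha => by
      refine Subgroup.mem_inf.2 ⟨mul_mem (inv_mem hx) (conj_mem_of_mem_normalizer (hX ha) hx), ?_⟩
      have h := Subgroup.mem_centralizer_iff.1 hc _ (mem_secImage (hA ha) ha)
      rw [← map_mul, ← map_mul] at h
      have h' := QuotientGroup.eq.1 h.symm
      rw [Subgroup.mem_subgroupOf] at h'
      have := conj_mem_of_mem_normalizer (hA ha) h'
      simpa [mul_assoc] using this)
  rw [hfix, Subgroup.mem_bot] at hc'
  rw [hc', mul_one] at hce
  simpa using inv_mem (Subgroup.mem_inf.1 hce).2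

end Section

theorem ward_aux (n : ℕ) : ∀ (Γ : Type u) [Group Γ] [Finite Γ] (A W Q R : Subgroup Γ)
    [IsMulCommutative A] (p q r s : ℕ) [Fact p.Prime] [Fact q.Prime] [Fact r.Prime] [Fact s.Prime],
    Nat.card W + Nat.card Q ≤ n → Nat.card A = p ^ 2 → (∀ a ∈ A, a ^ p = 1) →
    IsPGroup q Q → IsPGroup r R → IsPGroup s W → q ≠ r → q ≠ s → p ≠ q → p ≠ r → p ≠ s →
    A ≤ Subgroup.normalizer (W : Set Γ) → A ≤ Subgroup.normalizer (Q : Set Γ) →
    A ≤ Subgroup.normalizer (R : Set Γ) → Q ≤ Subgroup.normalizer (W : Set Γ) →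
    R ≤ Subgroup.normalizer (W : Set Γ) → R ≤ Subgroup.normalizer (Q : Set Γ) →
    W ⊓ Subgroup.centralizer (A : Set Γ) = ⊥ → Q ⊓ Subgroup.centralizer (A : Set Γ) = ⊥ →
    R ⊓ Subgroup.centralizer (A : Set Γ) = ⊥ → ⁅R, Q⁆ ≤ Subgroup.centralizer (W : Set Γ) := by
  induction n with
  | zero =>
    intro Γ _ _ A W Q R _ p q r s _ _ _ _ hle
    have : 0 < Nat.card W := Nat.card_pos
    omega
  | succ n ih =>
    intro Γ _ _ A W Q R _ p q r s _ _ _ _ hle hA hexp hQ hR hW hqr hqs hpq hpr hps
      hAW hAQ hAR hQW hRW hRQ hfW hfQ hfR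
    have cop : ∀ {a b : ℕ} [Fact a.Prime] [Fact b.Prime], a ≠ b → ∀ {S T : Subgroup Γ},
        IsPGroup a S → IsPGroup b T → (Nat.card S).Coprime (Nat.card T) := by
      intro a b _ _ hab S T hS hT
      obtain ⟨i, hi⟩ := IsPGroup.iff_card.1 hS
      obtain ⟨j, hj⟩ := IsPGroup.iff_card.1 hT
      rw [hi, hj]
      exact Nat.Coprime.pow _ _ ((Nat.coprime_primes Fact.out Fact.out).2 hab)
    have hAp : IsPGroup p A := IsPGroup.of_card hA
    have hzQ : ⁅R, Q⁆ ≤ Q := by
      rw [Subgroup.commutator_comm]; exact H20.commutator_le_of_le_normalizer hRQ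
    -- reduction modulo an invariant subgroup
    have red : ∀ C : Subgroup Γ, C ≠ ⊥ → A ≤ Subgroup.normalizer (C : Set Γ) →
        W ≤ Subgroup.normalizer (C : Set Γ) → Q ≤ Subgroup.normalizer (C : Set Γ) →
        R ≤ Subgroup.normalizer (C : Set Γ) → (C ≤ W ∨ C ≤ Q) →
        ∀ z ∈ ⁅R, Q⁆, ∀ w ∈ W, z * w * z⁻¹ * w⁻¹ ∈ C := by
      intro C hC0 hAC hWC hQC hRC hCle
      set N := Subgroup.normalizer (C : Set Γ) with hN
      have hdis : A ⊓ C = ⊥ := by
        rw [eq_bot_iff]
        rintro x ⟨hxA, hxC⟩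
        rcases hCle with h | h
        · exact Subgroup.mem_bot.2 (H20.eq_one_of_mem_of_coprime (cop hps hAp hW) hxA (h hxC))
        · exact Subgroup.mem_bot.2 (H20.eq_one_of_mem_of_coprime (cop hpq hAp hQ) hxA (h hxC))
      have hA' : Nat.card (secImage C A) = p ^ 2 := by
        rw [← hA]
        refine le_antisymm (Nat.le_of_dvd Nat.card_pos (card_secImage_dvd hAC)) ?_
        refine Nat.card_le_card_of_injective
          (fun a : A => (⟨_, mem_secImage (hAC a.2) a.2⟩ : secImage C A)) ?_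
        intro a b hab
        have h := QuotientGroup.eq.1 (congrArg Subtype.val hab)
        rw [Subgroup.mem_subgroupOf] at h
        have h2 : (a : Γ)⁻¹ * b ∈ A ⊓ C := Subgroup.mem_inf.2 ⟨mul_mem (inv_mem a.2) b.2, h⟩
        rw [hdis, Subgroup.mem_bot, inv_mul_eq_one] at h2
        exact Subtype.ext h2
      haveI : IsMulCommutative (secImage C A) := by
        refine ⟨⟨?_⟩⟩
        rintro ⟨_, x, hx, rfl⟩ ⟨_, y, hy, rfl⟩
        apply Subtype.ext
        simp only [Subgroup.coe_mul, ← map_mul]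
        congr 1
        apply Subtype.ext
        show (x : Γ) * (y : Γ) = (y : Γ) * (x : Γ)
        exact congrArg Subtype.val
          (IsMulCommutative.is_comm.comm (⟨(x : Γ), hx⟩ : A) ⟨(y : Γ), hy⟩)
      have hexp' : ∀ a ∈ secImage C A, a ^ p = 1 := by
        rintro _ ⟨x, hx, rfl⟩
        rw [← map_pow]
        have : x ^ p = 1 := Subtype.ext (by simpa using hexp _ hx)
        rw [this, map_one]
      have hlt : Nat.card (secImage C W) + Nat.card (secImage C Q) ≤ n := by
        have hW' := Nat.le_of_dvd Nat.card_pos (card_secImage_dvd hWC)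
        have hQ' := Nat.le_of_dvd Nat.card_pos (card_secImage_dvd hQC)
        have hsmall : ∀ X : Subgroup Γ, C ≤ X → X ≤ N →
            Nat.card (secImage C X) < Nat.card X := by
          intro X hCX hXN
          refine lt_of_le_of_ne (Nat.le_of_dvd Nat.card_pos (card_secImage_dvd hXN)) fun heq => ?_
          apply hC0
          rw [eq_bot_iff]
          intro c hc
          let f : X → secImage C X := fun x => ⟨_, mem_secImage (hXN x.2) x.2⟩
          have hf : Function.Surjective f := by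
            rintro ⟨_, x, hx, rfl⟩
            exact ⟨⟨x, hx⟩, rfl⟩
          have hbij := (Nat.bijective_iff_surjective_and_card f).2 ⟨hf, heq.symm⟩
          have hcN : c ∈ N := hXN (hCX hc)
          have h1 : f ⟨c, hCX hc⟩ = f 1 := by
            refine Subtype.ext (QuotientGroup.eq.2 ?_)
            rw [Subgroup.mem_subgroupOf]
            simpa using inv_mem hc
          exact Subgroup.mem_bot.2 (congrArg Subtype.val (hbij.1 h1))
        rcases hCle with h | h
        · have := hsmall W h hWC; omega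
        · have := hsmall Q h hQC; omega
      have hres := ih (↥N ⧸ C.subgroupOf N) (secImage C A) (secImage C W) (secImage C Q)
        (secImage C R) p q r s hlt hA' hexp' (isPGroup_secImage hQ) (isPGroup_secImage hR)
        (isPGroup_secImage hW) hqr hqs hpq hpr hps (secImage_le_normalizer hAW)
        (secImage_le_normalizer hAQ) (secImage_le_normalizer hAR) (secImage_le_normalizer hQW)
        (secImage_le_normalizer hRW) (secImage_le_normalizer hRQ)
        (secImage_inf_centralizer hAC hAW (cop hps hAp hW) hfW)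
        (secImage_inf_centralizer hAC hAQ (cop hpq hAp hQ) hfQ)
        (secImage_inf_centralizer hAC hAR (cop hpr hAp hR) hfR)
      intro z hz w hw
      have hzN : z ∈ N := hQC (hzQ hz)
      have hz' : QuotientGroup.mk' (C.subgroupOf N) ⟨z, hzN⟩ ∈ ⁅secImage C R, secImage C Q⁆ := by
        unfold secImage
        rw [← Subgroup.map_commutator]
        refine ⟨⟨z, hzN⟩, ?_, rfl⟩
        have hmap : (⁅R.subgroupOf N, Q.subgroupOf N⁆).map N.subtype = ⁅R, Q⁆ := by
          rw [Subgroup.map_commutator, Subgroup.map_subgroupOf_eq_of_le hRC,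
            Subgroup.map_subgroupOf_eq_of_le hQC]
        rw [← hmap] at hz
        obtain ⟨t, ht, hte⟩ := hz
        rwa [show (⟨z, hzN⟩ : N) = t from Subtype.ext hte.symm]
      have h := Subgroup.mem_centralizer_iff.1 (hres hz') _ (mem_secImage (hWC hw) hw)
      rw [← map_mul, ← map_mul] at h
      have h' := QuotientGroup.eq.1 h.symm
      rw [Subgroup.mem_subgroupOf] at h'
      have h2 := conj_mem_of_mem_normalizer (mul_mem (hWC hw) hzN) (inv_mem h')
      simpa [mul_assoc] using h2
    by_cases hW0 : W = ⊥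
    · intro z _
      rw [hW0, Subgroup.mem_centralizer_iff]
      intro w hw
      rw [SetLike.mem_coe, Subgroup.mem_bot] at hw
      simp [hw]
    by_cases hex : ∃ W₁ : Subgroup Γ, W₁ < W ∧ W₁ ≠ ⊥ ∧ A ≤ Subgroup.normalizer (W₁ : Set Γ) ∧
        W ≤ Subgroup.normalizer (W₁ : Set Γ) ∧ Q ≤ Subgroup.normalizer (W₁ : Set Γ) ∧
        R ≤ Subgroup.normalizer (W₁ : Set Γ)
    · obtain ⟨W₁, hlt, hW₁0, hA₁, hWW₁, hQ₁, hR₁⟩ := hex
      have hcard : Nat.card W₁ < Nat.card W := by
        rcases lt_or_eq_of_le (Subgroup.card_le_of_le hlt.le) with h | h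
        · exact h
        · exact absurd (Subgroup.eq_of_le_of_card_ge hlt.le h.ge) hlt.ne
      have h₁ := ih Γ A W₁ Q R p q r s (by omega) hA hexp hQ hR (hW.to_le hlt.le) hqr hqs hpq hpr
        hps hA₁ hAQ hAR hQ₁ hR₁ hRQ (le_bot_iff.1 (hfW ▸ inf_le_inf_right _ hlt.le)) hfQ hfR
      intro z hz
      have hzf : Subgroup.zpowers z ≤ fixMod W W₁ :=
        Subgroup.zpowers_le.2 (mem_fixMod.2 ⟨hQW (hzQ hz), hQ₁ (hzQ hz),
          fun w hw => red W₁ hW₁0 hA₁ hWW₁ hQ₁ hR₁ (Or.inl hlt.le) z hz w hw⟩)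
      refine H53.le_centralizer_of_two_step (N := W) (C := W₁)
        (cop hqs (hQ.to_le (Subgroup.zpowers_le.2 (hzQ hz))) (hW.to_le hlt.le)) ?_ ?_
        (Subgroup.mem_zpowers z)
      · rw [Subgroup.commutator_le]
        intro w hw g hg
        have := inv_mem ((mem_fixMod.1 (hzf hg)).2.2 w hw)
        simpa [commutatorElement_def, mul_assoc] using this
      · rw [Subgroup.commutator_comm, Subgroup.commutator_eq_bot_iff_le_centralizer,
          Subgroup.zpowers_le]
        exact h₁ hz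
    push Not at hex
    -- `W` is abelian and irreducible
    haveI : IsMulCommutative W := by
      have hlt : ⁅W, W⁆ < W := by
        haveI := hW.isNilpotent
        refine lt_of_le_of_ne (Subgroup.commutator_le_self W) fun h => hW0 ?_
        have hmap : (commutator W).map W.subtype = (⊤ : Subgroup W).map W.subtype := by
          rw [commutator_def, Subgroup.map_commutator, ← MonoidHom.range_eq_map,
            Subgroup.range_subtype, h]
        have htop := Subgroup.map_injective W.subtype_injective hmap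
        by_contra hne
        haveI := (Subgroup.nontrivial_iff_ne_bot W).2 hne
        exact (Group.IsSolvable.commutator_lt_top_of_nontrivial (G := W)).ne htop
      have h0 : ⁅W, W⁆ = ⊥ := by
        by_contra h
        have hn : ∀ X : Subgroup Γ, X ≤ Subgroup.normalizer (W : Set Γ) →
            X ≤ Subgroup.normalizer ((⁅W, W⁆ : Subgroup Γ) : Set Γ) := by
          intro X hX g hg
          refine mem_normalizer_of_forall fun k hk => ?_
          have hle : ⁅W, W⁆ ≤ (⁅W, W⁆).comap (MulAut.conj g).toMonoidHom := by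
            rw [Subgroup.commutator_le]
            intro a ha b hb
            show MulAut.conj g ⁅a, b⁆ ∈ ⁅W, W⁆
            rw [map_commutatorElement]
            exact Subgroup.commutator_mem_commutator (conj_mem_of_mem_normalizer (hX hg) ha)
              (conj_mem_of_mem_normalizer (hX hg) hb)
          simpa using hle hk
        exact hex _ hlt h (hn A hAW) (hn W Subgroup.le_normalizer) (hn Q hQW) (hn R hRW)
      refine ⟨⟨fun a b => Subtype.ext ?_⟩⟩
      have : ⁅(a : Γ), (b : Γ)⁆ ∈ (⊥ : Subgroup Γ) :=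
        h0 ▸ Subgroup.commutator_mem_commutator a.2 b.2
      rwa [Subgroup.mem_bot, commutatorElement_eq_one_iff_mul_comm] at this
    have hirr : ∀ V : Subgroup Γ, V ≤ W → A ≤ Subgroup.normalizer (V : Set Γ) →
        Q ≤ Subgroup.normalizer (V : Set Γ) → R ≤ Subgroup.normalizer (V : Set Γ) →
        V = ⊥ ∨ V = W := by
      intro V hV hA' hQ' hR'
      by_contra h
      push Not at h
      refine hex V (lt_of_le_of_ne hV h.2) h.1 hA' ?_ hQ' hR'
      intro w hw
      refine mem_normalizer_of_forall fun v hv => ?_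
      have hc : w * v = v * w :=
        congrArg Subtype.val (IsMulCommutative.is_comm.comm (⟨w, hw⟩ : W) ⟨v, hV hv⟩)
      rwa [hc, mul_inv_cancel_right]
    by_cases hK : Q ⊓ Subgroup.centralizer (W : Set Γ) = ⊥
    · have hC := ward_irreducible hA hexp hQ hR hqr hW0 hAW hAQ hAR hQW hRW hRQ (cop hqs hQ hW)
        (cop hpq hAp hQ) (cop hpr hAp hR) hfW hfQ hfR hK hirr
      rw [Subgroup.commutator_eq_bot_iff_le_centralizer.2 hC]
      exact bot_le
    · intro z hz
      rw [Subgroup.mem_centralizer_iff]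
      intro w hw
      have hWC : W ≤ Subgroup.normalizer
          ((Q ⊓ Subgroup.centralizer (W : Set Γ) : Subgroup Γ) : Set Γ) := fun x hx =>
        Subgroup.centralizer_le_normalizer _ (Subgroup.mem_centralizer_iff.2 fun k hk =>
          (Subgroup.mem_centralizer_iff.1 hk.2 x hx).symm)
      have h := red _ hK (H20.le_normalizer_inf hAQ (H20.le_normalizer_centralizer hAW)) hWC
        (H20.le_normalizer_inf Subgroup.le_normalizer (H20.le_normalizer_centralizer hQW))
        (H20.le_normalizer_inf hRQ (H20.le_normalizer_centralizer hRW)) (Or.inr inf_le_left)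
        z hz w hw
      have h2 : z * w * z⁻¹ * w⁻¹ ∈ W :=
        mul_mem (conj_mem_of_mem_normalizer (hQW (hzQ hz)) hw) (inv_mem hw)
      have h3 := H20.eq_one_of_mem_of_coprime (cop hqs hQ hW) h.1 h2
      rw [mul_inv_eq_one, mul_inv_eq_iff_eq_mul] at h3
      exact h3.symm

/-- Ward's lemma. -/
theorem ward_commutator {Γ : Type u} [Group Γ] [Finite Γ] {A W Q R : Subgroup Γ}
    [IsMulCommutative A] {p q r s : ℕ} [Fact p.Prime] [Fact q.Prime] [Fact r.Prime] [Fact s.Prime]
    (hA : Nat.card A = p ^ 2) (hexp : ∀ a ∈ A, a ^ p = 1) (hQ : IsPGroup q Q) (hR : IsPGroup r R)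
    (hW : IsPGroup s W) (hqr : q ≠ r) (hqs : q ≠ s) (hpq : p ≠ q) (hpr : p ≠ r) (hps : p ≠ s)
    (hAW : A ≤ Subgroup.normalizer (W : Set Γ)) (hAQ : A ≤ Subgroup.normalizer (Q : Set Γ))
    (hAR : A ≤ Subgroup.normalizer (R : Set Γ)) (hQW : Q ≤ Subgroup.normalizer (W : Set Γ))
    (hRW : R ≤ Subgroup.normalizer (W : Set Γ)) (hRQ : R ≤ Subgroup.normalizer (Q : Set Γ))
    (hfW : W ⊓ Subgroup.centralizer (A : Set Γ) = ⊥) (hfQ : Q ⊓ Subgroup.centralizer (A : Set Γ) = ⊥)
    (hfR : R ⊓ Subgroup.centralizer (A : Set Γ) = ⊥) :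
    ⁅R, Q⁆ ≤ Subgroup.centralizer (W : Set Γ) :=
  ward_aux _ Γ A W Q R p q r s le_rfl hA hexp hQ hR hW hqr hqs hpq hpr hps hAW hAQ hAR hQW hRW hRQ
    hfW hfQ hfR

end Cfsg.Agent.H84
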